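import Cfsg.Agent.RankOneSetup.Basic

set_option autoImplicit false

/-!
The multiplication functions of a rank one set-up.
-/

namespace CfsgLib.H29.RankOneMul

open MulAction CfsgLib.RankOneSetup

variable {G Ω : Type*} [Group G] [MulAction G Ω] {a : Ω} {t : G} {Q : Subgroup G}
variable (hS : Cfsg.IsRankOneSetup G Ω a t Q)
include hS

local notation "D" => stabilizer G a ⊓ stabilizer G (t • a)

theorem D_fix {d : G} (hd : d ∈ D) : d • a = a ∧ d • (t • a) = t • a :=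
  ⟨(Subgroup.mem_inf.1 hd).1, (Subgroup.mem_inf.1 hd).2⟩

theorem unique {g h f g' h' f' : G} (hg : g ∈ Q) (hh : h ∈ D) (hf : f ∈ Q) (hg' : g' ∈ Q)
    (hh' : h' ∈ D) (hf' : f' ∈ Q) (e : g * h * t * f = g' * h' * t * f') :
    g = g' ∧ h = h' ∧ f = f' := by
  have h1 := congrArg (fun x : G => x • a) e
  simp only [mul_smul, smul_Q hS hf, smul_Q hS hf', (D_fix hS hh).2, (D_fix hS hh').2] at h1
  obtain rfl := reg_unique hS hg hg' h1
  simp only [mul_assoc, mul_left_cancel_iff] at e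
  have h2 : t * (h'⁻¹ * h) * t⁻¹ = f' * f⁻¹ := by
    have e' : h'⁻¹ * h = t * f' * f⁻¹ * t⁻¹ := by
      calc h'⁻¹ * h = h'⁻¹ * (h * (t * f)) * f⁻¹ * t⁻¹ := by group
        _ = h'⁻¹ * (h' * (t * f')) * f⁻¹ * t⁻¹ := by rw [e]
        _ = t * f' * f⁻¹ * t⁻¹ := by group
    rw [e', inv_t hS]
    calc t * (t * f' * f⁻¹ * t) * t = (t * t) * (f' * f⁻¹) * (t * t) := by group
      _ = _ := by rw [hS.mul_self, one_mul, mul_one]
  have h3 : f' * f⁻¹ ∈ Q ⊓ stabilizer G (t • a) := Subgroup.mem_inf.2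
    ⟨Q.mul_mem hf' (Q.inv_mem hf),
      h2 ▸ (Subgroup.mem_inf.1 (t_conj_mem_D hS (mul_mem (inv_mem hh') hh))).2⟩
  rw [hS.inf_eq_bot, Subgroup.mem_bot] at h3
  obtain rfl := mul_inv_eq_one.1 h3
  exact ⟨rfl, mul_right_cancel e, rfl⟩

theorem tt (x : G) : t * (t * x) = x := by rw [← mul_assoc, hS.mul_self, one_mul]

theorem tD {d : G} (hd : d ∈ D) : t * d * t ∈ D := by
  have := t_conj_mem_D hS hd
  rwa [inv_t hS] at this

theorem D_conj {d x : G} (hd : d ∈ D) (hx : x ∈ Q) : d * x * d⁻¹ ∈ Q :=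
  hS.conj_mem d (Subgroup.mem_inf.1 hd).1 x hx

theorem identities {x g h f : G} (hx : x ∈ Q) (hg : g ∈ Q) (hh : h ∈ D) (hf : f ∈ Q)
    (heq : t * x * t = g * h * t * f) :
    (∀ g₁ h₁ f₁ : G, g₁ ∈ Q → h₁ ∈ D → f₁ ∈ Q → t * x⁻¹ * t = g₁ * h₁ * t * f₁ →
        f₁ = g⁻¹ ∧ h₁ = t * h⁻¹ * t) ∧
    (∀ g₂ h₂ f₂ : G, g₂ ∈ Q → h₂ ∈ D → f₂ ∈ Q → t * f * t = g₂ * h₂ * t * f₂ →
        f₂ = x ∧ h₂ = h⁻¹) ∧
    ∀ c ∈ D, ∀ g₃ h₃ f₃ : G, g₃ ∈ Q → h₃ ∈ D → f₃ ∈ Q →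
        t * (c⁻¹ * x * c) * t = g₃ * h₃ * t * f₃ →
          f₃ = (t * c * t)⁻¹ * f * (t * c * t) ∧ h₃ = (t * c * t)⁻¹ * h * c := by
  refine ⟨fun g₁ h₁ f₁ h1 h2 h3 e => ?_, fun g₂ h₂ f₂ h1 h2 h3 e => ?_,
    fun c hc g₃ h₃ f₃ h1 h2 h3 e => ?_⟩
  · have e0 : t * x⁻¹ * t = f⁻¹ * (t * h⁻¹ * t) * t * g⁻¹ := by
      have := congrArg Inv.inv heq
      simp only [mul_inv_rev, inv_t hS] at this
      simp only [mul_assoc, tt hS] at this ⊢
      exact this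
    obtain ⟨-, a1, a2⟩ := unique hS h1 h2 h3 (Q.inv_mem hf) (tD hS (inv_mem hh)) (Q.inv_mem hg)
      (e.symm.trans e0)
    exact ⟨a2, a1⟩
  · have e0 : t * f * t = (h⁻¹ * g⁻¹ * h⁻¹⁻¹) * h⁻¹ * t * x := by
      have e1 : t * f = h⁻¹ * g⁻¹ * (g * h * t * f) := by group
      rw [e1, ← heq]
      simp only [mul_assoc, inv_inv, mul_inv_cancel_left, hS.mul_self, mul_one]
    obtain ⟨-, a1, a2⟩ := unique hS h1 h2 h3 (D_conj hS (inv_mem hh) (Q.inv_mem hg)) (inv_mem hh) hx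
      (e.symm.trans e0)
    exact ⟨a2, a1⟩
  · set C := t * c * t with hC
    have hCD : C ∈ D := tD hS hc
    have hCi : C⁻¹ = t * c⁻¹ * t := by rw [hC, mul_inv_rev, mul_inv_rev, inv_t hS]; group
    have e0 : t * (c⁻¹ * x * c) * t = (C⁻¹ * g * C⁻¹⁻¹) * (C⁻¹ * h * c) * t * (C⁻¹ * f * C⁻¹⁻¹) := by
      rw [inv_inv]
      calc t * (c⁻¹ * x * c) * t = C⁻¹ * (t * x * t) * C := by
            rw [hCi, hC]; simp only [mul_assoc, tt hS]
        _ = C⁻¹ * g * C * (C⁻¹ * h) * (t * C) * (C⁻¹ * f * C) := by rw [heq]; group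
        _ = _ := by rw [show t * C = c * t by rw [hC]; simp only [mul_assoc, tt hS]]; group
    obtain ⟨-, a1, a2⟩ := unique hS h1 h2 h3 (D_conj hS (inv_mem hCD) hg)
      (mul_mem (mul_mem (inv_mem hCD) hh) hc) (D_conj hS (inv_mem hCD) hf) (e.symm.trans e0)
    exact ⟨by rw [a2, inv_inv], a1⟩

theorem product_rule {x y gx hx fx gy hy fy : G} (hxQ : x ∈ Q) (hyQ : y ∈ Q) (hxy : x * y ≠ 1)
    (hgx : gx ∈ Q) (hhx : hx ∈ D) (hfx : fx ∈ Q) (ex : t * x * t = gx * hx * t * fx)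
    (hgy : gy ∈ Q) (hhy : hy ∈ D) (hfy : fy ∈ Q) (ey : t * y * t = gy * hy * t * fy) :
    fx * gy ≠ 1 ∧
      ∀ gz hz fz g' h' f' : G, gz ∈ Q → hz ∈ D → fz ∈ Q → t * (fx * gy) * t = gz * hz * t * fz →
        g' ∈ Q → h' ∈ D → f' ∈ Q → t * (x * y) * t = g' * h' * t * f' →
          f' = (t * hy * t)⁻¹ * fz * (t * hy * t) * fy ∧ h' = hx * hz * hy := by
  have e0 : t * (x * y) * t = gx * hx * t * (fx * gy) * hy * t * fy := by
    calc t * (x * y) * t = (t * x * t) * (t * y * t) := by simp only [mul_assoc, tt hS]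
      _ = _ := by rw [ex, ey]; group
  constructor
  · intro hz
    apply hxy
    rw [hz, mul_one] at e0
    have h1 : (t * (x * y) * t) • a = a := by
      rw [e0, show gx * hx * t * hy * t * fy = gx * hx * (t * hy * t) * fy by group, mul_smul,
        mul_smul, mul_smul, smul_Q hS hfy, (D_fix hS (tD hS hhy)).1, (D_fix hS hhx).1, smul_Q hS hgx]
    rw [mul_smul, mul_smul] at h1
    have h2 := congrArg (fun b => t • b) h1
    simp only [smul_smul, tt hS] at h2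
    exact reg_unique hS (Q.mul_mem hxQ hyQ) Q.one_mem (by rw [one_smul, smul_smul]; exact h2)
  · intro gz hz fz g' h' f' hgz hhz hfz ez h1 h2 h3 e
    set K := t * hy * t with hK
    have hKD : K ∈ D := tD hS hhy
    have e1 : t * (x * y) * t =
        (gx * (hx * gz * hx⁻¹)) * (hx * hz * hy) * t * (K⁻¹ * fz * K⁻¹⁻¹ * fy) := by
      rw [e0, inv_inv]
      calc gx * hx * t * (fx * gy) * hy * t * fy
          = gx * hx * (t * (fx * gy) * t) * K * fy := by rw [hK]; simp only [mul_assoc, tt hS]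
        _ = gx * (hx * gz * hx⁻¹) * (hx * hz) * (t * K) * (K⁻¹ * fz * K * fy) := by rw [ez]; group
        _ = _ := by rw [show t * K = hy * t by rw [hK]; simp only [mul_assoc, tt hS]]; group
    obtain ⟨-, a1, a2⟩ := unique hS h1 h2 h3 (Q.mul_mem hgx (D_conj hS hhx hgz))
      (mul_mem (mul_mem hhx hhz) hhy) (Q.mul_mem (D_conj hS (inv_mem hKD) hfz) hfy) (e.symm.trans e1)
    exact ⟨by rw [a2, inv_inv], a1⟩

end CfsgLib.H29.RankOneMul
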